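import Mathlib.GroupTheory.Perm.Cycle.Type
import Mathlib.GroupTheory.SpecificGroups.Alternating
import Mathlib.GroupTheory.Perm.List

/-!
`A₈` has no subgroup isomorphic to `C₄ × C₄`.
-/

set_option autoImplicit false

namespace Cfsg.Agent.Lib.Chev.TriD4AltSection

open Equiv

/-- Number of fixed points of a map. -/
def fixN (f : Fin 8 → Fin 8) : ℕ := ((List.finRange 8).filter fun i => f i == i).length

/-- Equality of two maps. -/
def eqF (f g : Fin 8 → Fin 8) : Bool := (List.finRange 8).all fun i => f i == g i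

/-- The search condition: `f` cannot be the second generator. -/
def badY (x f : Fin 8 → Fin 8) : Bool :=
  let f2 := fun i => f (f i)
  !(eqF (fun i => f (x i)) (fun i => x (f i))) || !(eqF (fun i => f2 (f2 i)) id) || eqF f2 id ||
    eqF f2 (fun i => x (x i)) ||
    (List.range 4).any fun k =>
      let g := fun i => x^[k] (f i)
      !(eqF (fun i => g (g i)) id) && decide (2 < fixN g)

/-- `(0123)(4567)`. -/
def x44 : Perm (Fin 8) := List.formPerm [0, 1, 2, 3] * List.formPerm [4, 5, 6, 7]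

/-- `(0123)(45)`. -/
def x42 : Perm (Fin 8) := List.formPerm [0, 1, 2, 3] * List.formPerm [4, 5]

/-- The map commuting with `x44`, from two values. -/
def f44 (a b : Fin 8) (i : Fin 8) : Fin 8 :=
  [a, x44 a, x44 (x44 a), x44 (x44 (x44 a)), b, x44 b, x44 (x44 b), x44 (x44 (x44 b))].getD i.1 0

/-- The map commuting with `x42`, from four values. -/
def f42 (a b c d : Fin 8) (i : Fin 8) : Fin 8 :=
  [a, x42 a, x42 (x42 a), x42 (x42 (x42 a)), b, x42 b, c, d].getD i.1 0

theorem search44 : ∀ a b : Fin 8, badY x44 (f44 a b) = true := by decide +kernel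

theorem search42 : ∀ a b c d : Fin 8, badY x42 (f42 a b c d) = true := by decide +kernel

theorem eqF_iff {f g : Fin 8 → Fin 8} : eqF f g = true ↔ f = g := by
  simp [eqF, funext_iff]

theorem fixN_le {z : Perm (Fin 8)} (h : 6 ≤ z.support.card) : fixN z ≤ 2 := by
  have e : fixN z = (z.supportᶜ).card := by
    have : z.supportᶜ = ((List.finRange 8).filter fun i => z i == i).toFinset := by
      ext i; simp
    rw [this, List.toFinset_card_of_nodup ((List.nodup_finRange 8).filter _), fixN]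
  rw [e, Finset.card_compl, Fintype.card_fin]
  omega

theorem types_four {z : Perm (Fin 8)} (h4 : z ^ 4 = 1) (h2 : z ^ 2 ≠ 1) (hs : Perm.sign z = 1) :
    z.cycleType = {4, 4} ∨ z.cycleType = {4, 2} := by
  classical
  set m := z.cycleType with hm
  have hmem : ∀ n ∈ m, n = 2 ∨ n = 4 := by
    intro n hn
    have h1 : n ∣ 4 := (Perm.dvd_of_mem_cycleType hn).trans (orderOf_dvd_of_pow_eq_one h4)
    have h2' := Perm.two_le_of_mem_cycleType hn
    have h3 := Nat.le_of_dvd (by norm_num) h1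
    interval_cases n <;> simp_all
  have h4m : 4 ∈ m := by
    by_contra hc
    refine h2 (orderOf_dvd_iff_pow_eq_one.1 ?_)
    rw [← Perm.lcm_cycleType, Multiset.lcm_dvd]
    intro n hn
    rcases hmem n hn with rfl | rfl
    · exact dvd_rfl
    · exact absurd hn hc
  have hsum : m.sum ≤ 8 := by
    rw [hm, Perm.sum_cycleType]; exact (Finset.card_le_univ _).trans (by simp)
  have hpar : Even (m.sum + m.card) := by
    rw [Perm.sign_of_cycleType, ← hm] at hs
    exact (neg_one_pow_eq_one_iff_even (by decide)).1 hs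
  obtain ⟨m', hm'⟩ := Multiset.exists_cons_of_mem h4m
  rw [hm'] at hsum hpar hmem ⊢
  rw [Multiset.sum_cons] at hsum hpar
  rw [Multiset.card_cons] at hpar
  rcases Multiset.empty_or_exists_mem m' with rfl | ⟨n, hn⟩
  · simp at hpar; revert hpar; decide
  obtain ⟨m'', rfl⟩ := Multiset.exists_cons_of_mem hn
  rw [Multiset.sum_cons] at hsum hpar
  rw [Multiset.card_cons] at hpar
  rcases Multiset.empty_or_exists_mem m'' with rfl | ⟨k, hk⟩
  · rcases hmem n (by simp) with rfl | rfl
    · exact Or.inr rfl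
    · exact Or.inl rfl
  exfalso
  obtain ⟨m₃, rfl⟩ := Multiset.exists_cons_of_mem hk
  rw [Multiset.sum_cons] at hsum hpar
  rw [Multiset.card_cons] at hpar
  have := hmem n (by simp)
  have := hmem k (by simp)
  rcases Multiset.empty_or_exists_mem m₃ with rfl | ⟨l, hl⟩
  · simp only [Multiset.sum_zero, Multiset.card_zero] at hsum hpar
    obtain ⟨r, hr⟩ := hpar
    omega
  · obtain ⟨m₄, rfl⟩ := Multiset.exists_cons_of_mem hl
    rw [Multiset.sum_cons] at hsum
    have := hmem l (by simp)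
    omega

theorem support_six {z : Perm (Fin 8)} (h4 : z ^ 4 = 1) (h2 : z ^ 2 ≠ 1) (hs : Perm.sign z = 1) :
    6 ≤ z.support.card := by
  rw [← Perm.sum_cycleType]
  rcases types_four h4 h2 hs with h | h <;> rw [h] <;> decide

theorem not_bad {x y : Perm (Fin 8)} (hx : Perm.sign x = 1) (hy : Perm.sign y = 1) (hxy : Commute x y)
    (hx4 : x ^ 4 = 1) (hy4 : y ^ 4 = 1) (hy2 : y ^ 2 ≠ 1) (hne : y ^ 2 ≠ x ^ 2) :
    badY x y ≠ true := by
  intro h
  simp only [badY, Bool.or_eq_true, Bool.not_eq_true', List.any_eq_true, Bool.and_eq_true, decide_eq_true_eq,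
    ← Bool.not_eq_true, eqF_iff] at h
  have e2 : (fun i => y (y i)) = ⇑(y ^ 2) := by rw [pow_two]; rfl
  have ex : (fun i => x (x i)) = ⇑(x ^ 2) := by rw [pow_two]; rfl
  rcases h with (((h | h) | h) | h) | ⟨k, -, h1, h2⟩
  · exact h (funext fun i => (Perm.congr_fun hxy.eq i).symm)
  · refine h (funext fun i => ?_)
    show ((y * y) * (y * y)) i = i
    rw [show (y * y) * (y * y) = y ^ 4 by simp [pow_succ, mul_assoc], hy4]; rfl
  · exact hy2 (DFunLike.coe_injective (e2.symm.trans h))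
  · exact hne (DFunLike.coe_injective ((e2.symm.trans h).trans ex))
  · have eg : (fun i => x^[k] (y i)) = ⇑(x ^ k * y) := by
      funext i; rw [Perm.mul_apply, Perm.coe_pow]
    rw [eg] at h2
    refine absurd (fixN_le (support_six (z := x ^ k * y) ?_ ?_ ?_)) (not_le.2 h2)
    · rw [(hxy.pow_left k).mul_pow, hy4, mul_one, ← pow_mul, mul_comm, pow_mul, hx4, one_pow]
    · intro h3
      refine h1 (funext fun i => ?_)
      show (x^[k] (y (x^[k] (y i)))) = i
      have := Perm.congr_fun h3 i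
      rw [pow_two, Perm.mul_apply] at this
      simpa [Perm.coe_pow] using this
    · rw [map_mul, map_pow, hx, hy, one_pow, one_mul]

theorem comm_of_commute {x y : Perm (Fin 8)} (h : Commute x y) (i : Fin 8) : y (x i) = x (y i) :=
  (Perm.congr_fun h.eq i).symm

theorem no_c4c4 (x y : ↥(alternatingGroup (Fin 8))) (hxy : Commute x y) (hx4 : x ^ 4 = 1) (hy4 : y ^ 4 = 1)
    (hx2 : x ^ 2 ≠ 1) (hy2 : y ^ 2 ≠ 1) (hne : y ^ 2 ≠ x ^ 2) : False := by
  obtain ⟨x, hx⟩ := x
  obtain ⟨y, hy⟩ := y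
  rw [Perm.mem_alternatingGroup] at hx hy
  have hxy' : Commute x y := congrArg Subtype.val hxy.eq
  have hx4' : x ^ 4 = 1 := congrArg Subtype.val hx4
  have hy4' : y ^ 4 = 1 := congrArg Subtype.val hy4
  have hx2' : x ^ 2 ≠ 1 := fun h => hx2 (Subtype.ext h)
  have hy2' : y ^ 2 ≠ 1 := fun h => hy2 (Subtype.ext h)
  have hne' : y ^ 2 ≠ x ^ 2 := fun h => hne (Subtype.ext h)
  have t44 : x44.cycleType = {4, 4} := by decide +kernel
  have t42 : x42.cycleType = {4, 2} := by decide +kernel
  have key : ∀ x0 : Perm (Fin 8), x.cycleType = x0.cycleType →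
      ∃ y0 : Perm (Fin 8), Perm.sign x0 = 1 ∧ Perm.sign y0 = 1 ∧ Commute x0 y0 ∧ x0 ^ 4 = 1 ∧ y0 ^ 4 = 1 ∧
        y0 ^ 2 ≠ 1 ∧ y0 ^ 2 ≠ x0 ^ 2 := by
    intro x0 h
    obtain ⟨σ, hσ⟩ := isConj_iff.1 (Perm.isConj_iff_cycleType_eq.2 h)
    set f := MulAut.conj σ
    have hfx : f x = x0 := hσ
    refine ⟨f y, ?_, ?_, hfx ▸ hxy'.map f, ?_, ?_, ?_, ?_⟩
    · rw [← hσ, map_mul, map_mul, hx, mul_one, map_inv, mul_inv_cancel]
    · rw [MulAut.conj_apply, map_mul, map_mul, hy, mul_one, map_inv, mul_inv_cancel]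
    · rw [← hfx, ← map_pow, hx4', map_one]
    · rw [← map_pow, hy4', map_one]
    · rw [← map_pow, Ne, map_eq_one_iff _ f.injective]; exact hy2'
    · rw [← hfx, ← map_pow, ← map_pow]; exact fun h => hne' (f.injective h)
  rcases types_four hx4' hx2' hx with h | h
  · obtain ⟨y0, h1, h2, h3, h4, h5, h6, h7⟩ := key x44 (h.trans t44.symm)
    have e : (y0 : Fin 8 → Fin 8) = f44 (y0 0) (y0 4) := by
      have hc := comm_of_commute h3
      funext i
      fin_cases i <;> simp only [f44, ← hc] <;> first | rfl | exact congrArg y0 (by decide +kernel)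
    exact not_bad h1 h2 h3 h4 h5 h6 h7 (e ▸ search44 _ _)
  · obtain ⟨y0, h1, h2, h3, h4, h5, h6, h7⟩ := key x42 (h.trans t42.symm)
    have e : (y0 : Fin 8 → Fin 8) = f42 (y0 0) (y0 4) (y0 6) (y0 7) := by
      have hc := comm_of_commute h3
      funext i
      fin_cases i <;> simp only [f42, ← hc] <;> first | rfl | exact congrArg y0 (by decide +kernel)
    exact not_bad h1 h2 h3 h4 h5 h6 h7 (e ▸ search42 _ _ _ _)

end Cfsg.Agent.Lib.Chev.TriD4AltSection
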