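import Cfsg.Agent.Lib.Chev.TwistD4
import Cfsg.Agent.Lib.Chev.FieldAut
import Mathlib.FieldTheory.Finite.Extension

/-!
`³D₄(q)` inside `³D₄(q⁴)`.
-/

set_option autoImplicit false

namespace Cfsg.Agent.Lib.Chev.TriD4AltSection

open Cfsg.Lie Cfsg.Agent.Lib Cfsg.Agent.Lib.Chev

variable {K L : Type*} [Field K] [Fintype K] [Field L]

theorem gmap_twisted (i : K →+* L) {q : ℕ} (hK : Fintype.card K = q ^ 3) {g : GL chevD4.Idx K}
    (hg : g ∈ twistedD4 K q) : gmap chevD4 i g ∈ twistedD4 L (q ^ 4) := by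
  have hper : ∀ t : K, t ^ q ^ 3 = t := fun t => by rw [← hK, FiniteField.pow_card]
  have h4 : ∀ t : K, (i t) ^ q ^ 4 = i (t ^ q) := fun t => by
    rw [← map_pow, show q ^ 4 = q ^ 3 * q by ring, pow_mul, hper]
  have hsub : twistedD4 K q ≤ (twistedD4 L (q ^ 4)).comap (gmap chevD4 i) := by
    refine (Subgroup.closure_le _).2 ?_
    rintro g ⟨w, hw, hg⟩
    rw [SetLike.mem_coe, Subgroup.mem_comap, show g = D4.checked.wg w from Units.ext (hg.trans (D4.checked.val_wg w).symm)]
    have hlt : ∀ x ∈ w, x.1 < chevD4.nroots := by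
      have hr : ∀ r ∈ [d4p1, d4p2, d4p3, d4p4, d4m1, d4m2, d4m3, d4m4], r < chevD4.nroots := by decide +kernel
      rcases hw with ⟨t, -, r, hr', rfl⟩ | ⟨t, rs, hrs, rfl⟩
      · intro x hx
        simp only [List.mem_cons, List.not_mem_nil, or_false] at hx hr'
        rcases hr' with rfl | rfl <;> subst hx <;> exact hr _ (by simp)
      · intro x hx
        simp only [List.mem_cons, List.not_mem_nil, or_false] at hx hrs
        rcases hrs with rfl | rfl <;> rcases hx with rfl | rfl | rfl <;> exact hr _ (by simp)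
    rw [D4.checked.gmap_wg i w hlt]
    refine Subgroup.subset_closure ⟨_, ?_, D4.checked.val_wg _⟩
    rcases hw with ⟨t, ht, r, hr', rfl⟩ | ⟨t, rs, hrs, rfl⟩
    · exact Or.inl ⟨i t, by rw [h4, ht], r, hr', rfl⟩
    · refine Or.inr ⟨i t, rs, hrs, ?_⟩
      simp only [List.map_cons, List.map_nil]
      rw [h4, pow_two (q ^ 4), pow_mul, h4, h4, ← pow_mul, ← pow_two]
  exact hsub hg

/-- An injective map into `³D₄(q⁴)`. -/
theorem exists_embed (p a : ℕ) [Fact p.Prime] [CharP K p] (hK : Fintype.card K = (p ^ a) ^ 3) :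
    ∃ (L : Type) (_ : Field L) (_ : Fintype L), Fintype.card L = ((p ^ a) ^ 4) ^ 3 ∧
      ∃ ι : ↥(twistedD4 K (p ^ a)) →* ↥(twistedD4 L ((p ^ a) ^ 4)), Function.Injective ι := by
  let L := FiniteField.Extension K p 4
  let _ : Fintype L := Fintype.ofFinite L
  refine ⟨L, inferInstance, inferInstance, ?_, ?_⟩
  · rw [← Nat.card_eq_fintype_card, FiniteField.natCard_extension, Nat.card_eq_fintype_card, hK]
    ring
  · exact ⟨{ toFun := fun g => ⟨gmap chevD4 (algebraMap K L) g, gmap_twisted _ hK g.2⟩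
             map_one' := Subtype.ext (map_one (gmap chevD4 (algebraMap K L)))
             map_mul' := fun g h => Subtype.ext (map_mul (gmap chevD4 (algebraMap K L)) _ _) },
      fun g h e => Subtype.ext (gmap_injective _ (congrArg Subtype.val e))⟩

end Cfsg.Agent.Lib.Chev.TriD4AltSection
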