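import Mathlib.GroupTheory.Coxeter.Basic
import Mathlib.GroupTheory.SpecificGroups.Dihedral

/-!
The Coxeter group of type G₂ is dihedral of order 12.
-/

set_option autoImplicit false

namespace Cfsg.Agent.Lib.Chev.TriD4AltSection

open DihedralGroup

theorem g2_liftable :
    CoxeterMatrix.IsLiftable CoxeterMatrix.G₂ (![sr 0, sr 1] : Fin 2 → DihedralGroup 6) := by
  unfold CoxeterMatrix.IsLiftable
  decide +kernel

theorem g2_equiv : Nonempty (CoxeterMatrix.G₂.Group ≃* DihedralGroup 6) := by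
  classical
  set cs := CoxeterMatrix.G₂.toCoxeterSystem
  set f : CoxeterMatrix.G₂.Group →* DihedralGroup 6 := cs.lift ⟨_, g2_liftable⟩ with hf
  have hfs : ∀ i, f (cs.simple i) = ![sr 0, sr 1] i := fun i => cs.lift_apply_simple g2_liftable i
  set s := cs.simple 0 with hs
  set t := cs.simple 1 with ht
  set c := s * t with hc
  have hss : s * s = 1 := cs.simple_mul_simple_self 0
  have htt : t * t = 1 := cs.simple_mul_simple_self 1
  have hc6 : c ^ 6 = 1 := cs.simple_mul_simple_pow 0 1
  have hsc : s * c * s = c⁻¹ := by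
    rw [hc, mul_inv_rev, show t⁻¹ = t from inv_eq_of_mul_eq_one_right htt,
      show s⁻¹ = s from inv_eq_of_mul_eq_one_right hss, ← mul_assoc, hss, one_mul]
  have hsk : ∀ k : ℤ, s * c ^ k = c ^ (-k) * s := by
    intro k
    have h : SemiconjBy s c c⁻¹ := by
      show s * c = c⁻¹ * s
      rw [← hsc, mul_assoc, hss, mul_one]
    rw [(h.zpow_right k).eq, inv_zpow, zpow_neg]
  have hts : t = s * c := by rw [hc, ← mul_assoc, hss, one_mul]
  have hall : ∀ x, ∃ k : ℤ, x = c ^ k ∨ x = c ^ k * s := by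
    intro x
    induction x using cs.simple_induction_left with
    | one => exact ⟨0, Or.inl (by simp)⟩
    | mul_simple_left w i ih =>
      obtain ⟨k, rfl | rfl⟩ := ih
      · fin_cases i
        · exact ⟨-k, Or.inr (by rw [← hsk]; rfl)⟩
        · refine ⟨-(1 + k), Or.inr ?_⟩
          show t * c ^ k = _
          rw [hts, mul_assoc, ← zpow_one_add, hsk]
      · fin_cases i
        · exact ⟨-k, Or.inl (by show s * (c ^ k * s) = _; rw [← mul_assoc, hsk, mul_assoc, hss, mul_one])⟩
        · refine ⟨-(1 + k), Or.inl ?_⟩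
          show t * (c ^ k * s) = _
          rw [hts, ← mul_assoc, mul_assoc s c, ← zpow_one_add, hsk, mul_assoc, hss, mul_one]
  have hsurj : Function.Surjective (fun p : Fin 6 × Bool => if p.2 then c ^ (p.1 : ℕ) * s else c ^ (p.1 : ℕ)) := by
    intro x
    obtain ⟨k, h⟩ := hall x
    have hk : c ^ k = c ^ ((k % 6).toNat) := by
      rw [← zpow_natCast, Int.toNat_of_nonneg (Int.emod_nonneg _ (by norm_num))]
      conv_lhs => rw [← Int.mul_ediv_add_emod k 6, zpow_add, zpow_mul, show c ^ (6 : ℤ) = c ^ 6 from zpow_natCast c 6,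
        hc6, one_zpow, one_mul]
    have hlt : (k % 6).toNat < 6 := by omega
    rcases h with rfl | rfl
    · exact ⟨(⟨_, hlt⟩, false), by simp [hk]⟩
    · exact ⟨(⟨_, hlt⟩, true), by simp [hk]⟩
  have : Finite CoxeterMatrix.G₂.Group := Finite.of_surjective _ hsurj
  have hcard : Nat.card CoxeterMatrix.G₂.Group ≤ 12 :=
    (Nat.card_le_card_of_surjective _ hsurj).trans (by simp)
  have hfsurj : Function.Surjective f := by
    rw [← MonoidHom.range_eq_top, eq_top_iff]
    have h0 : sr 0 ∈ f.range := ⟨_, hfs 0⟩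
    have h1 : sr 1 ∈ f.range := ⟨_, hfs 1⟩
    have hr : ∀ i : ZMod 6, r i ∈ f.range := fun i => by
      have := pow_mem (mul_mem h0 h1) i.val
      rwa [sr_mul_sr, sub_zero, r_one_pow, ZMod.natCast_zmod_val] at this
    rintro (i | i) -
    · exact hr i
    · have := mul_mem h0 (hr i)
      rwa [sr_mul_r, zero_add] at this
  refine ⟨MulEquiv.ofBijective f ⟨?_, hfsurj⟩⟩
  have h12 : Nat.card (DihedralGroup 6) = 12 := DihedralGroup.nat_card
  exact (Nat.bijective_iff_surjective_and_card f).2 ⟨hfsurj,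
    le_antisymm (h12 ▸ hcard) (Nat.card_le_card_of_surjective _ hfsurj)⟩ |>.1

theorem g2_card : Nat.card CoxeterMatrix.G₂.Group = 12 := by
  obtain ⟨e⟩ := g2_equiv
  rw [Nat.card_congr e.toEquiv, DihedralGroup.nat_card]

theorem g2_pow_six (x : CoxeterMatrix.G₂.Group) : x ^ 6 = 1 := by
  obtain ⟨e⟩ := g2_equiv
  refine e.injective ?_
  rw [map_pow, map_one]
  generalize e x = y
  revert y
  decide +kernel

end Cfsg.Agent.Lib.Chev.TriD4AltSection
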