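import Cfsg.Agent.Lib.Chev.TriD4AltSection.G2W
import Cfsg.Agent.Lib.Chev.TwistCox
import Cfsg.Agent.Lib.Chev.TwistOrder
import Cfsg.Agent.Lib.Chev.CoxTorus.Conj

/-!
The split torus of `³D₄(q)` and its normaliser.
-/

set_option autoImplicit false

namespace Cfsg.Agent.Lib.Chev.TriD4AltSection

open Cfsg.Lie Cfsg.Agent.Lib Cfsg.Agent.Lib.Chev
open Cfsg.Agent.Lib.Chev.CoxTorus (wMat wMat_pow wMat_eq_one mono_torus_iff conj_decomp' cV_sg)

/-- Subgroups of a product of two cyclic groups are two-generated. -/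
theorem two_gen_prod {A B : Type*} [Group A] [Group B] [IsCyclic A] [IsCyclic B] (U : Subgroup (A × B)) :
    ∃ x y, U = Subgroup.closure {x, y} := by
  obtain ⟨b, hb⟩ := Subgroup.isCyclic_iff_exists_zpowers_eq_top (U.map (MonoidHom.snd A B)) |>.1 inferInstance
  have hbU : b ∈ U.map (MonoidHom.snd A B) := hb ▸ Subgroup.mem_zpowers b
  obtain ⟨y, hy, rfl⟩ := hbU
  obtain ⟨a, ha⟩ := Subgroup.isCyclic_iff_exists_zpowers_eq_top (U.comap (MonoidHom.inl A B)) |>.1 inferInstance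
  refine ⟨MonoidHom.inl A B a, y, le_antisymm (fun u hu => ?_) ((Subgroup.closure_le _).2 ?_)⟩
  · have h1 : MonoidHom.snd A B u ∈ U.map (MonoidHom.snd A B) := ⟨u, hu, rfl⟩
    rw [← hb] at h1
    obtain ⟨j, hj⟩ := Subgroup.mem_zpowers_iff.1 h1
    have h2 : (u * (y ^ j)⁻¹).2 = 1 := by
      rw [Prod.snd_mul, Prod.snd_inv, mul_inv_eq_one]
      exact hj.symm.trans (map_zpow (MonoidHom.snd A B) y j).symm
    have h3 : (u * (y ^ j)⁻¹).1 ∈ U.comap (MonoidHom.inl A B) := by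
      show ((u * (y ^ j)⁻¹).1, (1 : B)) ∈ U
      rw [← h2]
      exact mul_mem hu (inv_mem (zpow_mem hy j))
    rw [← ha] at h3
    obtain ⟨i, hi⟩ := Subgroup.mem_zpowers_iff.1 h3
    have h4 : u = MonoidHom.inl A B a ^ i * y ^ j := by
      rw [← map_zpow, hi, ← mul_inv_eq_iff_eq_mul]
      exact Prod.ext rfl h2
    rw [h4]
    exact mul_mem (zpow_mem (Subgroup.subset_closure (by simp)) _) (zpow_mem (Subgroup.subset_closure (by simp)) _)
  · rintro z (rfl | rfl)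
    · exact (ha ▸ Subgroup.mem_zpowers a : a ∈ U.comap (MonoidHom.inl A B))
    · exact hy

variable {L : Type*} [Field L] [Fintype L] {Q : ℕ} (φ : L ≃+* L) (hφ : ∀ t, φ t = t ^ Q)

/-- The split torus. -/
def torus (L : Type*) [Field L] (Q : ℕ) : Subgroup ↥(twistedD4 L Q) :=
  (chevD4.diagonalSubgroup L).subgroupOf (twistedD4 L Q)

/-- Its monomial normaliser. -/
def mono (L : Type*) [Field L] (Q : ℕ) : Subgroup ↥(twistedD4 L Q) :=
  (chevD4.monomialSubgroup L).subgroupOf (twistedD4 L Q)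

omit [Fintype L] in
theorem torus_le_mono : torus L Q ≤ mono L Q := fun _ hx => D4.checked.diag_le_monomial hx

omit [Fintype L] in
theorem torus_comm {x y : ↥(twistedD4 L Q)} (hx : x ∈ torus L Q) (hy : y ∈ torus L Q) : x * y = y * x :=
  Subtype.ext (D4.checked.diag_comm hx hy)

include hφ

theorem mono_hom (hL : Fintype.card L = Q ^ 3) :
    ∃ ψ : ↥(mono L Q) →* CoxeterMatrix.G₂.Group, Function.Surjective ψ ∧
      ψ.ker = (torus L Q).subgroupOf (mono L Q) := by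
  obtain ⟨ψ, hψ, hker⟩ := D4.twist_weyl φ hφ hL
  let e : ↥(mono L Q) →* ↥(chevD4.monomialSubgroup L ⊓ twistedD4 L Q) :=
    { toFun := fun g => ⟨(g : ↥(twistedD4 L Q)), Subgroup.mem_inf.2 ⟨g.2, g.1.2⟩⟩
      map_one' := rfl
      map_mul' := fun _ _ => rfl }
  refine ⟨ψ.comp e, hψ.comp fun g => ⟨⟨⟨g.1, (Subgroup.mem_inf.1 g.2).2⟩, (Subgroup.mem_inf.1 g.2).1⟩, rfl⟩, ?_⟩
  ext g
  rw [← MonoidHom.comap_ker, Subgroup.mem_comap, hker, Subgroup.mem_subgroupOf, Subgroup.mem_inf,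
    Subgroup.mem_subgroupOf]
  exact ⟨fun h => h.1, fun h => ⟨h, g.1.2⟩⟩

theorem index_torus (hQ : 2 ≤ Q) (hL : Fintype.card L = Q ^ 3) :
    Nat.card ↥(torus L Q) = (Q - 1) ^ 2 * (Q ^ 2 + Q + 1) ∧
    (torus L Q).index = Q ^ 12 * (Q + 1) ^ 2 * (Q ^ 2 - Q + 1) * (Q ^ 8 + Q ^ 4 + 1) := by
  have hT : Nat.card ↥(torus L Q) = (Q - 1) ^ 2 * (Q ^ 2 + Q + 1) := by
    rw [torus, ← Subgroup.inf_subgroupOf_right, Nat.card_congr (Subgroup.subgroupOfEquivOfLe inf_le_right).toEquiv,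
      D4.card_diag φ hφ hQ hL]
  refine ⟨hT, ?_⟩
  have h1 := Subgroup.card_mul_index (torus L Q)
  rw [hT, D4.card_twisted φ hφ hQ hL] at h1
  refine Nat.eq_of_mul_eq_mul_left (Nat.mul_pos (pow_pos (by omega) _) (by positivity)) (h1.trans ?_)
  have hq1 : 1 ≤ Q := by omega
  have hq2 : Q ≤ Q ^ 2 := Nat.le_self_pow two_ne_zero Q
  have hq2' : 1 ≤ Q ^ 2 := hq1.trans hq2
  have hq6 : 1 ≤ Q ^ 6 := Nat.one_le_pow _ _ (by omega)
  zify [hq1, hq2, hq2', hq6]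
  ring

theorem index_mono (hL : Fintype.card L = Q ^ 3) : 12 * (mono L Q).index = (torus L Q).index := by
  obtain ⟨ψ, hψ, hker⟩ := mono_hom φ hφ hL
  rw [← Subgroup.relIndex_mul_index (torus_le_mono (L := L) (Q := Q)), Subgroup.relIndex, ← hker,
    Subgroup.index_ker, MonoidHom.range_eq_top.2 hψ, Subgroup.card_top, g2_card]

theorem torus_two_gen (hL : Fintype.card L = Q ^ 3) (U : Subgroup ↥(twistedD4 L Q)) (hU : U ≤ torus L Q) :
    ∃ x y, U = Subgroup.closure {x, y} := by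
  classical
  have hper : ∀ t : L, φ^[3] t = t := frob_per hφ hL
  let Bs : Subgroup Lˣ :=
    { carrier := {b | φ (b : L) = b}
      one_mem' := by simp
      mul_mem' := fun {a b} ha hb => by
        show φ ((a * b : Lˣ) : L) = _
        rw [Units.val_mul, map_mul, ha, hb]
      inv_mem' := fun {a} ha => by
        show φ ((a⁻¹ : Lˣ) : L) = _
        rw [Units.val_inv_eq_inv_val, map_inv₀, ha] }
  have hfix : ∀ p : Lˣ × ↥Bs, D4.checked.torus (D4.torVec φ p.1 p.2) ∈ twistedD4 L Q := fun p => by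
    rw [D4.eq_fixed φ hφ hL]
    exact (D4.tw φ).torus_mem_fixed (D4.pinv_spec φ) ((D4.fixed_iff φ hper _).2 ⟨_, _, p.2.2, rfl⟩)
  have hmul : ∀ a b a' b' : Lˣ, D4.torVec φ (a * a') (b * b') = D4.torVec φ a b * D4.torVec φ a' b' := by
    intro a b a' b'
    funext ⟨i, hi⟩
    have hi' : i < 4 := D4.rank_eq ▸ hi
    interval_cases i <;> simp [D4.torVec, map_mul]
  let f : Lˣ × ↥Bs →* ↥(twistedD4 L Q) := MonoidHom.mk' (fun p => ⟨_, hfix p⟩) fun p p' => Subtype.ext (by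
    show D4.checked.torus (D4.torVec φ (p.1 * p'.1) (p.2.1 * p'.2.1)) = _
    rw [hmul]
    exact map_mul D4.checked.torusHom _ _)
  have hsurj : ∀ u ∈ torus L Q, u ∈ f.range := by
    intro u hu
    have hu2 : (u : GL chevD4.Idx L) ∈ (D4.tw φ).fixed := D4.eq_fixed φ hφ hL ▸ u.2
    obtain ⟨c, hc, e⟩ := (D4.tw φ).exists_fixed_torus (D4.pinv_spec φ) (D4.torMap_per φ hper) D4.ker_exp
      (by norm_num) hu hu2
    obtain ⟨a, b, hb, rfl⟩ := (D4.fixed_iff φ hper c).1 hc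
    exact ⟨(a, ⟨b, hb⟩), Subtype.ext e⟩
  obtain ⟨x, y, h⟩ := two_gen_prod (U.comap f)
  refine ⟨f x, f y, ?_⟩
  rw [← Set.image_pair, ← MonoidHom.map_closure, ← h, Subgroup.map_comap_eq,
    inf_eq_right.2 fun u hu => hsurj u (hU hu)]

omit hφ in
theorem root_eq_of_wMat_one {n : GL chevD4.Idx L} (hn : n ∈ chevD4.monomialSubgroup L) {v : ℕ}
    (hv : v < chevD4.nroots) (h : wMat D4.checked n = 1) : D4.checked.sg n v = v :=
  D4.checked.root_ext (D4.checked.sg_lt hn hv) hv fun j hj => by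
    have := congrFun (cV_sg D4.checked hn hv) ⟨j, hj⟩
    rwa [h, Matrix.vecMul_one] at this

/-- An element normalising a set in the torus has sixth power centralising it. -/
theorem centralise (hL : Fintype.card L = Q ^ 3) (g : ↥(twistedD4 L Q)) (S : Set ↥(twistedD4 L Q))
    (hS : ∀ x ∈ S, x ∈ torus L Q) (hg : ∀ x ∈ S, g * x * g⁻¹ ∈ S) {x : ↥(twistedD4 L Q)} (hx : x ∈ S) :
    g ^ 6 * x * (g ^ 6)⁻¹ = x := by
  set C := D4.checked
  have O := D4.tw_orth φ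
  have hgf : (g : GL chevD4.Idx L) ∈ (D4.tw φ).fixed := D4.eq_fixed φ hφ hL ▸ g.2
  obtain ⟨b, hb, -, n, hn, hnf, u, hu, -, e⟩ := (D4.tw φ).fixed_bnu hgf fun n hn hc => by
    obtain ⟨m, -, h1, h2, h3⟩ := O.exists_rep (M := ⊤) (fun _ _ => trivial) n hn hc
    exact ⟨m, h1, h2, h3⟩
  set nn : ↥(twistedD4 L Q) := ⟨n, (D4.eq_fixed φ hφ hL).symm ▸ hnf⟩ with hnn
  have h1 : ∀ x ∈ S, g * x * g⁻¹ = nn * x * nn⁻¹ := by
    intro x hx
    obtain ⟨c, hc⟩ := C.exists_torus (show (x : GL chevD4.Idx L) ∈ _ from hS x hx)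
    obtain ⟨c', hc'⟩ := C.exists_torus (show ((g * x * g⁻¹ : ↥(twistedD4 L Q)) : GL chevD4.Idx L) ∈ _ from hS _ (hg x hx))
    have hrel := (conj_decomp' C hb hn hu (c := c) (c' := c') (by
      rw [hc', hc, ← e, Subgroup.coe_mul, Subgroup.coe_mul, Subgroup.coe_inv]; group)).1
    refine Subtype.ext ?_
    rw [← hc', Subgroup.coe_mul, Subgroup.coe_mul, Subgroup.coe_inv, ← hc, eq_mul_inv_iff_mul_eq]
    exact ((mono_torus_iff C hn c c').2 hrel).symm
  have h2 : ∀ j : ℕ, g ^ j * x * (g ^ j)⁻¹ ∈ S ∧ g ^ j * x * (g ^ j)⁻¹ = nn ^ j * x * (nn ^ j)⁻¹ := by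
    intro j
    induction j with
    | zero => simpa using hx
    | succ j ih =>
      have e1 : g ^ (j + 1) * x * (g ^ (j + 1))⁻¹ = g * (g ^ j * x * (g ^ j)⁻¹) * g⁻¹ := by
        rw [pow_succ']; group
      refine ⟨e1 ▸ hg _ ih.1, ?_⟩
      rw [e1, h1 _ ih.1, ih.2, pow_succ']
      group
  rw [(h2 6).2]
  obtain ⟨ψ, -, hker⟩ := mono_hom φ hφ hL
  let mm : ↥(mono L Q) := ⟨nn, hn⟩
  have h6 : mm ^ 6 ∈ ψ.ker := by rw [MonoidHom.mem_ker, map_pow, g2_pow_six]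
  rw [hker, Subgroup.mem_subgroupOf] at h6
  rw [show nn ^ 6 = ((mm ^ 6 : ↥(mono L Q)) : ↥(twistedD4 L Q)) from rfl,
    torus_comm h6 (hS x hx), mul_inv_cancel_right]

end Cfsg.Agent.Lib.Chev.TriD4AltSection
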