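import Cfsg.Agent.Lib.Chev.TriD4AltSection.Alt8
import Cfsg.Agent.Lib.Chev.TriD4AltSection.Embed
import Cfsg.Agent.Lib.Chev.TriD4AltSection.Group
import Cfsg.Agent.Lib.Chev.F4AltSection.Main

/-!
Alternating sections of `³D₄(q)` have degree at most `6`, or `7` in characteristic `5`.
-/

set_option autoImplicit false

namespace Cfsg.Agent.Lib.Chev.TriD4AltSection

open Cfsg.Lie Cfsg.Agent.Lib Cfsg.Agent.Lib.Chev Equiv
open Cfsg.Agent.Lib.Chev.F4AltSection (lift_one image_relations extAlt extAlt_injective)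

def s7 : ↥(alternatingGroup (Fin 7)) :=
  ⟨List.formPerm [0, 1, 2, 3, 4], Perm.mem_alternatingGroup.2 (by decide +kernel)⟩

def g7 : ↥(alternatingGroup (Fin 7)) :=
  ⟨List.formPerm [1, 2, 4, 3] * List.formPerm [5, 6], Perm.mem_alternatingGroup.2 (by decide +kernel)⟩

theorem facts7 : s7 ^ 5 = 1 ∧ s7 ≠ 1 ∧ g7 * s7 * g7⁻¹ = s7 ^ 2 := by decide +kernel

theorem five_mod (Q : ℕ) (hQ5 : (Q : ZMod 5) = 1) (hQ : 1 ≤ Q) :
    ¬ 5 ∣ Q ^ 12 * (Q + 1) ^ 2 * (Q ^ 2 - Q + 1) * (Q ^ 8 + Q ^ 4 + 1) := by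
  rw [← ZMod.natCast_eq_zero_iff]
  simp only [Nat.cast_mul, Nat.cast_pow, Nat.cast_add, Nat.cast_one, Nat.cast_sub (Nat.le_self_pow two_ne_zero Q), hQ5]
  decide

theorem eight_mod (Q : ℕ) (hQ8 : (Q : ZMod 8) = 1) :
    ((Q ^ 12 * (Q + 1) ^ 2 * (Q ^ 2 - Q + 1) * (Q ^ 8 + Q ^ 4 + 1) : ℕ) : ZMod 8) = 4 := by
  simp only [Nat.cast_mul, Nat.cast_pow, Nat.cast_add, Nat.cast_one, Nat.cast_sub (Nat.le_self_pow two_ne_zero Q), hQ8]
  decide

/-- A subgroup of index prime to `r` absorbs `r`-subgroups. -/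
theorem conj_into {G : Type*} [Group G] [Finite G] {r : ℕ} [Fact r.Prime] (M : Subgroup G) (hM : ¬ r ∣ M.index)
    (P : Subgroup G) (hP : IsPGroup r P) : ∃ g : G, ∀ x ∈ P, g * x * g⁻¹ ∈ M := by
  obtain ⟨R₀⟩ : Nonempty (Sylow r ↥M) := inferInstance
  let R₁ : Sylow r G := Sylow.ofCard ((R₀ : Subgroup ↥M).map M.subtype) (by
    rw [Subgroup.card_map_of_injective M.subtype_injective, R₀.card_eq_multiplicity,
      ← Subgroup.card_mul_index M, Nat.factorization_mul Nat.card_pos.ne' Subgroup.index_ne_zero_of_finite,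
      Finsupp.add_apply, Nat.factorization_eq_zero_of_not_dvd hM, add_zero])
  obtain ⟨R₂, hR₂⟩ := hP.exists_le_sylow
  obtain ⟨g, hg⟩ := MulAction.exists_smul_eq G R₂ R₁
  refine ⟨g, fun x hx => ?_⟩
  have hmem : g * x * g⁻¹ ∈ (R₁ : Subgroup G) := by
    rw [← hg, Sylow.smul_def, Sylow.pointwise_smul_def, Subgroup.mem_pointwise_smul_iff_inv_smul_mem]
    simp only [← map_inv, MulAut.smul_def, MulAut.conj_apply, inv_inv]
    rw [show g⁻¹ * (g * x * g⁻¹) * g = x by group]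
    exact hR₂ hx
  obtain ⟨z, -, hz⟩ := Subgroup.mem_map.1 hmem
  exact hz ▸ z.2

variable {L : Type*} [Field L] [Fintype L] {Q : ℕ}

theorem section_five (φ : L ≃+* L) (hφ : ∀ t, φ t = t ^ Q) (hQ : 2 ≤ Q) (hL : Fintype.card L = Q ^ 3)
    (hQ5 : (Q : ZMod 5) = 1) {H : Type*} [Group H] [Finite H] (j : H →* ↥(twistedD4 L Q))
    (hj : Function.Injective j) {r : ℕ} (hr : 7 ≤ r) (π : H →* ↥(alternatingGroup (Fin r)))
    (hπ : Function.Surjective π) : False := by
  classical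
  have h5 : Fact (Nat.Prime 5) := ⟨Nat.prime_five⟩
  set e := extAlt hr
  obtain ⟨hs, hs1, hgs⟩ := facts7
  obtain ⟨A, γ, hA, hγA, ⟨x, hx, hxs⟩, c, hcs, hπγ⟩ :=
    lift_one π hπ (a := 5) (s := e s7) (g := e g7) (by rw [← map_pow, hs, map_one])
      (by rw [← map_inv, ← map_mul, ← map_mul, hgs, map_pow]; exact Subgroup.npow_mem_zpowers _ _)
  obtain ⟨g, hg⟩ := conj_into (torus L Q) (r := 5)
    (by rw [(index_torus φ hφ hQ hL).2]; exact five_mod Q hQ5 (by omega)) (A.map j) (hA.map j)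
  set f := (MulAut.conj g).toMonoidHom.comp j with hf
  have hfinj : Function.Injective f := (MulAut.conj g).injective.comp hj
  have h6 := centralise φ hφ hL (f γ) (f '' A) (by rintro _ ⟨y, hy, rfl⟩; exact hg _ ⟨y, hy, rfl⟩)
    (by rintro _ ⟨y, hy, rfl⟩; exact ⟨_, hγA y hy, by simp⟩) (x := f x) ⟨x, hx, rfl⟩
  rw [← map_pow, ← map_inv, ← map_mul, ← map_mul] at h6
  have := (image_relations π (a := 5) (x := x) hπγ (hxs.symm ▸ hcs)
    (show e g7 * π x * (e g7)⁻¹ = π x ^ 2 by rw [hxs, ← map_inv, ← map_mul, ← map_mul, hgs, map_pow])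
    (by rw [hxs, ← map_pow, hs, map_one]) (fun h => hs1 (extAlt_injective hr (by rw [map_one, ← h, hxs])))
    6).1 (hfinj h6)
  exact absurd this (by decide)

theorem pow_four_of_two_power {z : ↥(alternatingGroup (Fin 8))} {k : ℕ} (h : z ^ 2 ^ k = 1) : z ^ 4 = 1 := by
  classical
  obtain ⟨z, hz⟩ := z
  rw [Perm.mem_alternatingGroup] at hz
  have h' : z ^ 2 ^ k = 1 := congrArg Subtype.val h
  have h8 : orderOf z ∣ 8 := by
    rw [← Perm.lcm_cycleType, Multiset.lcm_dvd]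
    intro n hn
    obtain ⟨i, -, rfl⟩ := (Nat.dvd_prime_pow Nat.prime_two).1
      ((Perm.dvd_of_mem_cycleType hn).trans (orderOf_dvd_of_pow_eq_one h'))
    have h1 : 2 ^ i ≤ 8 := by
      refine (Multiset.le_sum_of_mem hn).trans ?_
      rw [Perm.sum_cycleType]; exact (Finset.card_le_univ _).trans (by simp)
    exact Nat.pow_dvd_pow 2 ((Nat.pow_le_pow_iff_right (le_refl 2)).1 (show 2 ^ i ≤ 2 ^ 3 from h1))
  refine Subtype.ext (?_ : z ^ 4 = 1)
  refine orderOf_dvd_iff_pow_eq_one.1 ?_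
  rw [← Perm.lcm_cycleType, Multiset.lcm_dvd]
  intro n hn
  have h1 : n ∣ 2 ^ 3 := (Perm.dvd_of_mem_cycleType hn).trans h8
  obtain ⟨i, hi, rfl⟩ := (Nat.dvd_prime_pow Nat.prime_two).1 h1
  by_contra hc
  have hi3 : i = 3 := by
    by_contra h3
    exact hc (Nat.pow_dvd_pow 2 (by omega : i ≤ 2))
  subst hi3
  -- an 8-cycle is odd
  obtain ⟨m, hm⟩ := Multiset.exists_cons_of_mem hn
  have hm0 : m = 0 := by
    have hs := Finset.card_le_univ z.support
    rw [← Perm.sum_cycleType, hm, Multiset.sum_cons, Fintype.card_fin] at hs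
    refine Multiset.eq_zero_of_forall_notMem fun a ha => ?_
    have := Multiset.le_sum_of_mem ha
    have := Perm.two_le_of_mem_cycleType (σ := z) (hm ▸ Multiset.mem_cons_of_mem ha)
    omega
  rw [Perm.sign_of_cycleType, hm, hm0] at hz
  exact absurd hz (by decide)

theorem mem_pair {G : Type*} [Group G] {a b : G} (hc : Commute a b) {m : ℕ} (hm : 0 < m) (ha : a ^ m = 1)
    (hb : b ^ m = 1) {z : G} (hz : z ∈ Subgroup.closure {a, b}) : ∃ i j : Fin m, z = a ^ (i : ℕ) * b ^ (j : ℕ) := by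
  have key : ∀ i k : ℕ, ∃ i' k' : Fin m, a ^ i * b ^ k = a ^ (i' : ℕ) * b ^ (k' : ℕ) := fun i k => by
    refine ⟨⟨i % m, Nat.mod_lt _ hm⟩, ⟨k % m, Nat.mod_lt _ hm⟩, ?_⟩
    rw [← pow_eq_pow_mod i ha, ← pow_eq_pow_mod k hb]
  induction hz using Subgroup.closure_induction with
  | mem w hw =>
    rcases hw with rfl | rfl
    · simpa using key 1 0
    · simpa using key 0 1
  | one => simpa using key 0 0
  | mul u v _ _ hu hv =>
    obtain ⟨i, k, rfl⟩ := hu
    obtain ⟨i', k', rfl⟩ := hv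
    obtain ⟨i'', k'', h⟩ := key (i + i') (k + k')
    refine ⟨i'', k'', ?_⟩
    rw [← h, pow_add, pow_add, mul_assoc, ← mul_assoc (b ^ (k : ℕ)), ← (hc.pow_pow i' k).eq]
    simp only [mul_assoc]
  | inv u _ hu =>
    obtain ⟨i, k, rfl⟩ := hu
    obtain ⟨i', k', h⟩ := key (m - i) (m - k)
    refine ⟨i', k', ?_⟩
    have ea : a ^ (m - (i : ℕ)) = (a ^ (i : ℕ))⁻¹ :=
      eq_inv_of_mul_eq_one_left (by rw [← pow_add, Nat.sub_add_cancel i.2.le, ha])
    have eb : b ^ (m - (k : ℕ)) = (b ^ (k : ℕ))⁻¹ :=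
      eq_inv_of_mul_eq_one_left (by rw [← pow_add, Nat.sub_add_cancel k.2.le, hb])
    rw [← h, ea, eb, mul_inv_rev]
    exact ((hc.pow_pow (i : ℕ) (k : ℕ)).inv_inv).eq.symm

theorem no_sixteen (a b : ↥(alternatingGroup (Fin 8))) (hc : Commute a b) (ha : a ^ 4 = 1) (hb : b ^ 4 = 1)
    (h : 16 ≤ Nat.card ↥(Subgroup.closure {a, b})) : False := by
  classical
  have hmem : ∀ i j : Fin 4, a ^ (i : ℕ) * b ^ (j : ℕ) ∈ Subgroup.closure {a, b} := fun i j =>
    mul_mem (pow_mem (Subgroup.subset_closure (by simp)) _) (pow_mem (Subgroup.subset_closure (by simp)) _)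
  let F : Fin 4 × Fin 4 → ↥(Subgroup.closure {a, b}) := fun p => ⟨_, hmem p.1 p.2⟩
  have hF : Function.Surjective F := fun z => by
    obtain ⟨i, j, e⟩ := mem_pair hc (by norm_num) ha hb z.2
    exact ⟨(i, j), Subtype.ext e.symm⟩
  have hinj : Function.Injective F := ((Nat.bijective_iff_surjective_and_card F).2
    ⟨hF, le_antisymm (by simpa using h) (Nat.card_le_card_of_surjective F hF)⟩).1
  have key : ∀ i j i' j' : Fin 4, (i, j) ≠ (i', j') → a ^ (i : ℕ) * b ^ (j : ℕ) ≠ a ^ (i' : ℕ) * b ^ (j' : ℕ) :=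
    fun i j i' j' hne e => hne (hinj (Subtype.ext e))
  refine no_c4c4 a b hc ha hb ?_ ?_ ?_
  · simpa using key 2 0 0 0 (by decide)
  · simpa using key 0 2 0 0 (by decide)
  · simpa using key 0 2 2 0 (by decide)

theorem section_two (φ : L ≃+* L) (hφ : ∀ t, φ t = t ^ Q) (hQ : 2 ≤ Q) (hL : Fintype.card L = Q ^ 3)
    (hQ8 : (Q : ZMod 8) = 1) {H : Type*} [Group H] [Finite H] (j : H →* ↥(twistedD4 L Q))
    (hj : Function.Injective j) (π : H →* ↥(alternatingGroup (Fin 8))) (hπ : Function.Surjective π) : False := by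
  classical
  have h2 : Fact (Nat.Prime 2) := ⟨Nat.prime_two⟩
  obtain ⟨S⟩ : Nonempty (Sylow 2 H) := inferInstance
  have h64 : 64 ∣ Nat.card ↥((S : Subgroup H).map π) := by
    have h1 : Nat.card ↥(alternatingGroup (Fin 8)) = 20160 := by
      rw [nat_card_alternatingGroup, Nat.card_eq_fintype_card, Fintype.card_fin]; rfl
    have hnd : ¬ 2 ∣ ((S : Subgroup H).map π).index := by
      have := (S.mapSurjective hπ).not_dvd_index
      rwa [Sylow.coe_mapSurjective] at this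
    refine Nat.Coprime.dvd_of_dvd_mul_right (n := ((S : Subgroup H).map π).index) ?_ ?_
    · exact (Nat.Coprime.pow_left 6 ((Nat.prime_two.coprime_iff_not_dvd).2 hnd) : Nat.Coprime (2 ^ 6) _)
    · rw [Subgroup.card_mul_index, h1]; norm_num
  have hidx : ¬ 2 ∣ (mono L Q).index := by
    intro hdvd
    obtain ⟨k, hk⟩ := hdvd
    have := index_mono φ hφ hL
    rw [(index_torus φ hφ hQ hL).2, hk] at this
    have h4 := eight_mod Q hQ8
    rw [← this, Nat.cast_mul, Nat.cast_mul] at h4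
    revert h4
    generalize (k : ZMod 8) = w
    revert w
    decide
  obtain ⟨g, hg⟩ := conj_into (mono L Q) (r := 2) hidx ((S : Subgroup H).map j) (S.isPGroup'.map j)
  set f := (MulAut.conj g).toMonoidHom.comp j with hf
  have hfinj : Function.Injective f := (MulAut.conj g).injective.comp hj
  obtain ⟨ψ, -, hker⟩ := mono_hom φ hφ hL
  set P := (S : Subgroup H)
  let χ : ↥P →* ↥(mono L Q) :=
    (f.comp P.subtype).codRestrict _ fun x => hg _ ⟨x, x.2, rfl⟩
  set θ := ψ.comp χ with hθ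
  set U := θ.ker.map P.subtype with hU
  have hPU : U.relIndex P ∣ 4 := by
    obtain ⟨m, hm⟩ := S.isPGroup'.exists_card_eq
    have h1 : U.relIndex P = Nat.card θ.range := by
      rw [Subgroup.relIndex, hU, ← Subgroup.index_ker]
      congr 1
      exact Subgroup.comap_map_eq_self_of_injective P.subtype_injective _
    have h12 : Nat.card θ.range ∣ 2 ^ 2 * 3 := by
      have := Subgroup.card_subgroup_dvd_card θ.range
      rwa [g2_card] at this
    have h2p : Nat.card θ.range ∣ 2 ^ m := hm ▸ Subgroup.card_range_dvd θ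
    rw [h1]
    obtain ⟨i, -, hi⟩ := (Nat.dvd_prime_pow Nat.prime_two).1 h2p
    rw [hi] at h12 ⊢
    exact (Nat.Coprime.pow_left i (by norm_num : Nat.Coprime 2 3)).dvd_of_dvd_mul_right h12
  have h16 : 16 ≤ Nat.card ↥(U.map π) := by
    have h1 : (U.map π).relIndex (P.map π) ∣ 4 := by
      refine Nat.dvd_trans ?_ hPU
      have e : (U.subgroupOf P).map (π.subgroupMap P) = (U.map π).subgroupOf (P.map π) := by
        ext ⟨z, hz⟩
        simp only [Subgroup.mem_subgroupOf, Subgroup.mem_map]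
        constructor
        · rintro ⟨x, hx, hxz⟩
          exact ⟨x, hx, congrArg Subtype.val hxz⟩
        · rintro ⟨x, hx, hxz⟩
          exact ⟨⟨x, Subgroup.map_subtype_le _ hx⟩, hx, Subtype.ext hxz⟩
      rw [Subgroup.relIndex, ← e]
      exact Subgroup.index_map_dvd _ (MonoidHom.subgroupMap_surjective π P)
    have hle : U.map π ≤ P.map π := Subgroup.map_mono (Subgroup.map_subtype_le _)
    have h2' := Subgroup.card_mul_index ((U.map π).subgroupOf (P.map π))
    rw [Nat.card_congr (Subgroup.subgroupOfEquivOfLe hle).toEquiv] at h2'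
    have h4 := Nat.le_of_dvd (by norm_num) h1
    have h64' := Nat.le_of_dvd Nat.card_pos h64
    rw [Subgroup.relIndex] at h4
    nlinarith [Nat.mul_le_mul_left (Nat.card ↥(U.map π)) h4]
  have hUT : U.map f ≤ torus L Q := by
    rintro _ ⟨_, ⟨x, hx, rfl⟩, rfl⟩
    have h1 : χ x ∈ ψ.ker := (MonoidHom.mem_ker (f := ψ)).2 ((MonoidHom.mem_ker (f := θ)).1 hx)
    rw [hker, Subgroup.mem_subgroupOf] at h1
    show f (x : H) ∈ torus L Q
    exact h1
  obtain ⟨a, b, hab⟩ := torus_two_gen φ hφ hL (U.map f) hUT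
  obtain ⟨a₀, ha₀, rfl⟩ : a ∈ U.map f := hab ▸ Subgroup.subset_closure (by simp)
  obtain ⟨b₀, hb₀, rfl⟩ : b ∈ U.map f := hab ▸ Subgroup.subset_closure (by simp)
  have hUeq : U = Subgroup.closure {a₀, b₀} := Subgroup.map_injective hfinj (by
    rw [hab, MonoidHom.map_closure, Set.image_pair])
  have hcomm : Commute a₀ b₀ := hfinj (by
    rw [map_mul, map_mul]
    exact torus_comm (hUT ⟨_, ha₀, rfl⟩) (hUT ⟨_, hb₀, rfl⟩))
  have hfour : ∀ z ∈ U, π z ^ 4 = 1 := fun z hz => by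
    obtain ⟨k, hk⟩ := S.isPGroup' ⟨z, Subgroup.map_subtype_le _ hz⟩
    refine pow_four_of_two_power (k := k) ?_
    rw [← map_pow, show z ^ 2 ^ k = 1 from congrArg Subtype.val hk, map_one]
  refine no_sixteen (π a₀) (π b₀) (hcomm.map π) (hfour _ ha₀) (hfour _ hb₀) ?_
  rwa [← Set.image_pair, ← MonoidHom.map_closure, ← hUeq]

theorem section_bound {K : Type*} [Field K] [Fintype K] (p a : ℕ) [Fact p.Prime] [CharP K p] (ha : 1 ≤ a)
    (hK : Fintype.card K = (p ^ a) ^ 3) (r : ℕ) (H : Subgroup ↥(twistedD4 K (p ^ a)))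
    (π : ↥H →* ↥(alternatingGroup (Fin r))) (hπ : Function.Surjective π) :
    r ≤ 6 + (if p = 5 then 1 else 0) := by
  classical
  have h5 : Fact (Nat.Prime 5) := ⟨Nat.prime_five⟩
  obtain ⟨L, iL, fL, hL, ι, hι⟩ := exists_embed p a hK
  have hp : p.Prime := Fact.out
  have hQ : 2 ≤ (p ^ a) ^ 4 := by
    rw [← pow_mul]; exact le_trans hp.two_le (Nat.le_self_pow (by omega) p)
  obtain ⟨φ, hφ⟩ := exists_frob (K := L) (q := (p ^ a) ^ 4) (d := 3)
    (by rw [← pow_mul]; exact hp.isPrimePow.pow (by omega)) (by norm_num) hL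
  have hjinj : Function.Injective (ι.comp H.subtype) := hι.comp H.subtype_injective
  by_contra hr
  push Not at hr
  by_cases h : p = 5
  · rw [if_pos h] at hr
    subst h
    have hr8 : 8 ≤ r := by omega
    set e : ↥(alternatingGroup (Fin 8)) →* ↥(alternatingGroup (Fin r)) := extAlt hr8
    let E : ↥(alternatingGroup (Fin 8)) ≃* ↥e.range := MonoidHom.ofInjective (extAlt_injective hr8)
    let π' : ↥(e.range.comap π) →* ↥(alternatingGroup (Fin 8)) := E.symm.toMonoidHom.comp (π.subgroupComap e.range)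
    refine section_two φ hφ hQ hL ?_ ((ι.comp H.subtype).comp (Subgroup.subtype (e.range.comap π)))
      (hjinj.comp (Subgroup.subtype_injective _))
      π' ?_
    · rw [Nat.cast_pow, Nat.cast_pow, ← pow_mul, show a * 4 = 2 * (2 * a) by ring, pow_mul,
        show ((5 : ℕ) : ZMod 8) ^ 2 = 1 by decide, one_pow]
    · exact E.symm.surjective.comp (MonoidHom.subgroupComap_surjective_of_surjective π _ hπ)
  · rw [if_neg h] at hr
    refine section_five φ hφ hQ hL ?_ (ι.comp H.subtype) hjinj (by omega : 7 ≤ r) π hπ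
    rw [Nat.cast_pow, Nat.cast_pow, ← pow_mul, mul_comm, pow_mul]
    have h0 : (p : ZMod 5) ≠ 0 := by
      rw [Ne, ZMod.natCast_eq_zero_iff]
      exact fun hd => h ((Nat.prime_dvd_prime_iff_eq Nat.prime_five hp).1 hd).symm
    rw [show (p : ZMod 5) ^ 4 = 1 from ZMod.pow_card_sub_one_eq_one h0, one_pow]

end Cfsg.Agent.Lib.Chev.TriD4AltSection
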